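import Mathlib
import Cfsg.Agent.H945.E83.SpData
import Cfsg.Agent.H945.E83.Cert

/-!
# `Sp₆(2)` in `E₈(3)`: the fixed space is non-zero, transvections have the value `24` (S5919)
-/

set_option autoImplicit false
set_option maxRecDepth 100000

namespace Cfsg.Agent.H945.E83.Dim

open Cfsg Cfsg.Lie Cfsg.Agent.H657 IsLocalRing Module
open Cfsg.Agent.SporRec.TwoSp6.Sp Cfsg.Agent.H945.E83.Code Cfsg.Agent.H945.E83.Tab Cfsg.Agent.H945.E83.Data
open Cfsg.Agent.H942.Fun (look allB allB_spec)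
open Cfsg.Agent.H942.Forest (cntK sum_of)
open Cfsg.Agent.H942.Enum Cfsg.Agent.H942.E8Alc Cfsg.Agent.H942.Common Cfsg.Agent.H942.E8Val
open Cfsg.Agent.H942.L7 (fixL)
open Cfsg.Agent.H945.E83.Cert

/-! ### the tables -/

theorem qw_lt : ∀ j < 4, ∀ u ∈ qw j, u < 64 := by decide +kernel

theorem bw_lt : ∀ j < 9, ∀ u ∈ bw j, u < 64 := by decide +kernel

theorem gw_lt : ∀ u ∈ gw, u < 64 := by decide +kernel

theorem R_q : ∀ j < 4, R (wT (qw j)) (qG j) := fun j hj => by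
  rw [qG_eq j hj]
  exact R_w (qw_lt j hj)

theorem R_b : ∀ j < 9, R (wT (bw j)) (bB j) := fun j hj => by
  rw [bB_eq j hj]
  exact R_w (bw_lt j hj)

theorem exE : ∃ e : ℕ → S, (∀ i < 512, R (e i) (EE i)) ∧
    Table 512 4 e (fun j => wT (qw j)) (fun i j => look 9 pT (4 * i + j)) :=
  exists_tab (gen := fun j => wT (qw j)) (by norm_num) R_q chk_Q

/-- the elements of the Sylow `2`-subgroup -/
noncomputable def e : ℕ → S := exE.choose

theorem he : ∀ i < 512, R (e i) (EE i) := exE.choose_spec.1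

theorem tab : Table 512 4 e (fun j => wT (qw j)) (fun i j => look 9 pT (4 * i + j)) := exE.choose_spec.2

theorem t0 : (∀ i < 64, look 9 xI0 i < 512) ∧ (∀ j < 4, look 9 xG0 j < 512) ∧
    Table 64 4 (fun i => e (look 9 xI0 i)) (fun j => e (look 9 xG0 j)) (fun i j => look 9 xT0 (4 * i + j)) :=
  tabX he tab (by norm_num) chk_0

theorem t1 : (∀ i < 256, look 9 xI1 i < 512) ∧ (∀ j < 4, look 9 xG1 j < 512) ∧
    Table 256 4 (fun i => e (look 9 xI1 i)) (fun j => e (look 9 xG1 j)) (fun i j => look 9 xT1 (4 * i + j)) :=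
  tabX he tab (by norm_num) chk_1

theorem t2 : (∀ i < 64, look 9 xI2 i < 512) ∧ (∀ j < 4, look 9 xG2 j < 512) ∧
    Table 64 4 (fun i => e (look 9 xI2 i)) (fun j => e (look 9 xG2 j)) (fun i j => look 9 xT2 (4 * i + j)) :=
  tabX he tab (by norm_num) chk_2

theorem t3 : (∀ i < 64, look 9 xI3 i < 512) ∧ (∀ j < 5, look 9 xG3 j < 512) ∧
    Table 64 5 (fun i => e (look 9 xI3 i)) (fun j => e (look 9 xG3 j)) (fun i j => look 9 xT3 (5 * i + j)) :=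
  tabX he tab (by norm_num) chk_3

theorem t4 : (∀ i < 128, look 9 xI4 i < 512) ∧ (∀ j < 3, look 9 xG4 j < 512) ∧
    Table 128 3 (fun i => e (look 9 xI4 i)) (fun j => e (look 9 xG4 j)) (fun i j => look 9 xT4 (3 * i + j)) :=
  tabX he tab (by norm_num) chk_4


theorem cls {A : Type*} {φ : S → A} (hφ : ∀ g h : S, φ (h⁻¹ * g * h) = φ g) :
    ∀ i < 512, rt i < 12 ∧ φ (e i) = φ (e (rp (rt i))) := val_root he R_b chk_F hφ

/-- the class of the square -/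
def s (k : ℕ) : ℕ := [0, 0, 0, 0, 0, 4, 3, 4, 4, 3, 9, 6].getD k 0

theorem s_lt : ∀ k < 12, s k < 12 := by decide

theorem sqv {A : Type*} {φ : S → A} (hφ : ∀ g h : S, φ (h⁻¹ * g * h) = φ g) {k : ℕ} (hk : k < 12) :
    φ (e (rp k) ^ 2) = φ (e (rp (s k))) := by
  obtain ⟨h1, h2, h3, h4⟩ := chk_sq k hk
  have h5 : e (rp k) ^ 2 = e (sq k) := by
    rw [pow_two]
    refine R_inj (a := EE (sq k)) ?_ (he _ h1)
    rw [← h3]
    exact R_mul (he _ h2) (he _ h2)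
  rw [h5, (cls hφ _ h1).2, h4]
  rfl

theorem pow_conj {g h : S} (n : ℕ) : (h⁻¹ * g * h) ^ n = h⁻¹ * g ^ n * h := by
  have := conj_pow (i := n) (a := h⁻¹) (b := g)
  rwa [inv_inv] at this

theorem sqv2 {A : Type*} {φ : S → A} (hφ : ∀ g h : S, φ (h⁻¹ * g * h) = φ g) {k : ℕ} (hk : k < 12) :
    φ (e (rp k) ^ 4) = φ (e (rp (s (s k)))) := by
  have h1 := sqv (φ := fun g => φ (g ^ 2)) (fun g h => by rw [pow_conj, hφ]) hk
  rw [sqv hφ (s_lt k hk), ← pow_mul] at h1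
  exact h1

theorem sqv3 {A : Type*} {φ : S → A} (hφ : ∀ g h : S, φ (h⁻¹ * g * h) = φ g) {k : ℕ} (hk : k < 12) :
    φ (e (rp k) ^ 8) = φ (e (rp (s (s (s k))))) := by
  have h1 := sqv2 (φ := fun g => φ (g ^ 2)) (fun g h => by rw [pow_conj, hφ]) hk
  rw [sqv hφ (s_lt _ (s_lt k hk)), ← pow_mul] at h1
  exact h1

theorem sss : ∀ k < 12, s (s (s k)) = 0 := by decide

theorem rp0 : rp 0 = 0 := by decide +kernel

theorem rp_ne : ∀ k < 12, k ≠ 0 → rp k ≠ 0 := by decide +kernel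

theorem pow8 {k : ℕ} (hk : k < 12) : e (rp k) ^ 8 = 1 := by
  have h1 := sqv3 (φ := fun g : S => (g = 1)) (fun g h => by
    rw [eq_iff_iff]
    constructor
    · intro h1
      have : g = h * (h⁻¹ * g * h) * h⁻¹ := by group
      rw [this, h1, mul_one, mul_inv_cancel]
    · rintro rfl
      rw [mul_one, inv_mul_cancel]) hk
  rw [sss k hk, rp0] at h1
  exact (eq_iff_iff.1 h1).2 tab.one

variable {M : Ideal AlgInt} {V : ValuationSubring ℂ} (hM : IsPModular 3 M) (hV : Above M V)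
  [CharP (ResidueField V) 3] {F : S →* ↥(chevE8.group (ZMod 3))} (hF : Function.Injective F)

theorem val_aux (V : ValuationSubring ℂ) [CharP (ResidueField V) 3] {F : S →* ↥(chevE8.group (ZMod 3))}
    (hF : Function.Injective F) {k : ℕ} (hk : k < 12) :
    ∃ t₁ t₂ t₄ : ℤ, (t₁, t₂, t₄) ∈ L8 ∧ bc 3 (adj V F) (e (rp k)) = t₁ ∧ bc 3 (adj V F) (e (rp (s k))) = t₂ ∧
      bc 3 (adj V F) (e (rp (s (s k)))) = t₄ ∧ (k = 0 ↔ t₁ = 248) := by
  obtain ⟨a, b, c, h1, h2, h3, h4, h5, -, -⟩ := val8 V F (pow8 hk)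
  refine ⟨a, b, c, h1, h2, ?_, ?_, ?_⟩
  · rw [← h3]
    exact (sqv (φ := fun g => bc 3 (adj V F) g) (fun g h => bc_conj' F g h) hk).symm
  · rw [← h4]
    exact (sqv2 (φ := fun g => bc 3 (adj V F) g) (fun g h => bc_conj' F g h) hk).symm
  · rw [← h5]
    constructor
    · rintro rfl
      rw [rp0, tab.one, map_one]
    · intro h6
      by_contra h7
      have h8 : e (rp k) = 1 := hF (h6.trans (map_one F).symm)
      exact tab.ne _ (chk_sq k hk).2.1 (rp_ne k hk h7) h8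

theorem vals (V : ValuationSubring ℂ) [CharP (ResidueField V) 3] {F : S →* ↥(chevE8.group (ZMod 3))}
    (hF : Function.Injective F) :
    ∃ τ : ℕ → ℤ, (∀ k < 12, bc 3 (adj V F) (e (rp k)) = τ k) ∧
      (∀ k < 12, (τ k, τ (s k), τ (s (s k))) ∈ L8) ∧ ∀ k < 12, (k = 0 ↔ τ k = 248) := by
  classical
  choose a b c h using fun k : Fin 12 => val_aux V hF k.2
  let τ : ℕ → ℤ := fun k => if hk : k < 12 then a ⟨k, hk⟩ else 0
  have hτ : ∀ k < 12, bc 3 (adj V F) (e (rp k)) = τ k := by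
    intro k hk
    simp only [τ, dif_pos hk]
    exact (h ⟨k, hk⟩).2.1
  refine ⟨τ, hτ, fun k hk => ?_, fun k hk => ?_⟩
  · have h1 := h ⟨k, hk⟩
    have e1 : τ k = a ⟨k, hk⟩ := by simp only [τ, dif_pos hk]
    have e2 : τ (s k) = b ⟨k, hk⟩ := by
      have := h1.2.2.1
      rw [hτ _ (s_lt k hk)] at this
      exact_mod_cast this
    have e3 : τ (s (s k)) = c ⟨k, hk⟩ := by
      have := h1.2.2.2.1
      rw [hτ _ (s_lt _ (s_lt k hk))] at this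
      exact_mod_cast this
    rw [e1, e2, e3]
    exact h1.1
  · have h1 := h ⟨k, hk⟩
    have e1 : τ k = a ⟨k, hk⟩ := by simp only [τ, dif_pos hk]
    rw [e1]
    exact h1.2.2.2.2

theorem tab_eq {τ : ℕ → ℤ} (hM : IsPModular 3 M) (hV : Above M V) (hτ : ∀ k < 12, bc 3 (adj V F) (e (rp k)) = τ k)
    {n m : ℕ} (hn : n.Coprime 3)
    {idx : ℕ → ℕ} {gs : ℕ → S} {T : ℕ → ℕ → ℕ} (hi : ∀ i < n, idx i < 512)
    (ht : Table n m (fun i => e (idx i)) gs T) :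
    ∑ k ∈ Finset.range 12, (cntK n (fun i => rt (idx i)) k : ℤ) * τ k =
      (n : ℤ) * (finrank (ZMod 3) ↥(fixL F ((List.range n).map fun i => e (idx i))) : ℤ) := by
  have h1 := dim_table hM hV F ht hn
  have h2 : ∑ i ∈ Finset.range n, bc 3 (adj V F) (e (idx i)) = ∑ i ∈ Finset.range n, ((τ (rt (idx i)) : ℤ) : ℂ) := by
    refine Finset.sum_congr rfl fun i h => ?_
    have h3 := cls (φ := fun g => bc 3 (adj V F) g) (fun g h => bc_conj' F g h) (idx i) (hi i (Finset.mem_range.1 h))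
    rw [h3.2, hτ _ h3.1]
  rw [h2, sum_of (r := 12) (f := fun i => rt (idx i)) (fun i h => (cls (φ := fun _ => (0 : ℕ)) (fun _ _ => rfl)
    (idx i) (hi i h)).1) (fun k => ((τ k : ℤ) : ℂ))] at h1
  have h4 : (((∑ k ∈ Finset.range 12, (cntK n (fun i => rt (idx i)) k : ℤ) * τ k : ℤ)) : ℂ) =
      (((n : ℤ) * (finrank (ZMod 3) ↥(fixL F ((List.range n).map fun i => e (idx i))) : ℤ) : ℤ) : ℂ) := by
    push_cast
    rw [← h1]
    refine Finset.sum_congr rfl fun k _ => ?_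
    rw [nsmul_eq_mul]
  exact_mod_cast h4

theorem mono {L L' : List S} (h : ∀ x ∈ L, x ∈ L') :
    finrank (ZMod 3) ↥(fixL F L') ≤ finrank (ZMod 3) ↥(fixL F L) :=
  Submodule.finrank_mono fun _ hv g hg => hv g (h g hg)

/-! ### the values -/

theorem L8a : ∀ p ∈ L8, p.2.1 = 248 → p.2.2 = 248 → p.1 ≠ 248 → ∃ u ∈ [0, 32], p.1 = ((u : ℕ) : ℤ) - 8 := by
  decide +kernel

theorem L8b : ∀ p ∈ L8, p.2.2 = 248 → p.1 ≠ 248 → p.2.1 ≠ 248 → ∀ u2 ∈ [0, 32], p.2.1 = ((u2 : ℕ) : ℤ) - 8 →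
    ∃ u ∈ T4 u2, p.1 = ((u : ℕ) : ℤ) - 8 := by
  decide +kernel

theorem L8c : ∀ p ∈ L8, p.1 ≠ 248 → p.2.1 ≠ 248 → p.2.2 ≠ 248 → ∀ u2 ∈ [0, 32], p.2.2 = ((u2 : ℕ) : ℤ) - 8 →
    ∀ u4 ∈ T4 u2, p.2.1 = ((u4 : ℕ) : ℤ) - 8 → ∃ u ∈ T8 u4 u2, p.1 = ((u : ℕ) : ℤ) - 8 := by
  decide +kernel

theorem gd_of {n d a : ℕ} (hn : 0 < n) (h : a = n * (d + 8)) : gd n a = true ∧ a / n = d + 8 := by
  have h1 : a / n = d + 8 := by rw [h, Nat.mul_div_cancel_left _ hn]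
  refine ⟨?_, h1⟩
  rw [gd, h1, h, Nat.mul_mod_right, Bool.and_eq_true, Nat.ble_eq]
  exact ⟨Nat.beq_refl 0, by omega⟩

/-- the lists of elements -/
noncomputable def Lx (n : ℕ) (idx : ℕ → ℕ) : List S := (List.range n).map fun i => e (idx i)

theorem Lx_sub {n : ℕ} {idx : ℕ → ℕ} (h : ∀ i < n, idx i < 512) : ∀ x ∈ Lx n idx, x ∈ Lx 512 (fun i => i) := by
  intro x hx
  obtain ⟨i, hi, rfl⟩ := List.mem_map.1 hx
  exact List.mem_map.2 ⟨idx i, List.mem_range.2 (h i (List.mem_range.1 hi)), rfl⟩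

include hM hV hF in
theorem main : bc 3 (adj V F) (e (rp 1)) = 24 ∧
    finrank (ZMod 3) ↥(fixL F (Lx 64 (look 9 xI0))) < 2 * finrank (ZMod 3) ↥(fixL F (Lx 512 fun i => i)) := by
  obtain ⟨τ, hτ, hL, h248⟩ := vals V hF
  have z0 : τ 0 = 248 := (h248 0 (by norm_num)).1 rfl
  have zne : ∀ k < 12, k ≠ 0 → τ k ≠ 248 := fun k hk h0 h => h0 ((h248 k hk).2 h)
  have n1 := zne 1 (by norm_num) (by norm_num)
  have n2 := zne 2 (by norm_num) (by norm_num)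
  have n3 := zne 3 (by norm_num) (by norm_num)
  have n4 := zne 4 (by norm_num) (by norm_num)
  have n5 := zne 5 (by norm_num) (by norm_num)
  have n6 := zne 6 (by norm_num) (by norm_num)
  have n7 := zne 7 (by norm_num) (by norm_num)
  have n8 := zne 8 (by norm_num) (by norm_num)
  have n9 := zne 9 (by norm_num) (by norm_num)
  have n10 := zne 10 (by norm_num) (by norm_num)
  have n11 := zne 11 (by norm_num) (by norm_num)
  have l1 : (τ 1, τ 0, τ 0) ∈ L8 := hL 1 (by norm_num)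
  have l2 : (τ 2, τ 0, τ 0) ∈ L8 := hL 2 (by norm_num)
  have l3 : (τ 3, τ 0, τ 0) ∈ L8 := hL 3 (by norm_num)
  have l4 : (τ 4, τ 0, τ 0) ∈ L8 := hL 4 (by norm_num)
  have l5 : (τ 5, τ 4, τ 0) ∈ L8 := hL 5 (by norm_num)
  have l6 : (τ 6, τ 3, τ 0) ∈ L8 := hL 6 (by norm_num)
  have l7 : (τ 7, τ 4, τ 0) ∈ L8 := hL 7 (by norm_num)
  have l8 : (τ 8, τ 4, τ 0) ∈ L8 := hL 8 (by norm_num)
  have l9 : (τ 9, τ 3, τ 0) ∈ L8 := hL 9 (by norm_num)
  have l10 : (τ 10, τ 9, τ 3) ∈ L8 := hL 10 (by norm_num)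
  have l11 : (τ 11, τ 6, τ 3) ∈ L8 := hL 11 (by norm_num)
  obtain ⟨u1, m1, v1⟩ := L8a _ l1 z0 z0 n1
  obtain ⟨u2, m2, v2⟩ := L8a _ l2 z0 z0 n2
  obtain ⟨u3, m3, v3⟩ := L8a _ l3 z0 z0 n3
  obtain ⟨u4, m4, v4⟩ := L8a _ l4 z0 z0 n4
  obtain ⟨u5, m5, v5⟩ := L8b _ l5 z0 n5 n4 u4 m4 v4
  obtain ⟨u6, m6, v6⟩ := L8b _ l6 z0 n6 n3 u3 m3 v3
  obtain ⟨u7, m7, v7⟩ := L8b _ l7 z0 n7 n4 u4 m4 v4
  obtain ⟨u8, m8, v8⟩ := L8b _ l8 z0 n8 n4 u4 m4 v4
  obtain ⟨u9, m9, v9⟩ := L8b _ l9 z0 n9 n3 u3 m3 v3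
  obtain ⟨u10, m10, v10⟩ := L8c _ l10 n10 n9 n3 u3 m3 v3 u9 m9 v9
  obtain ⟨u11, m11, v11⟩ := L8c _ l11 n11 n6 n3 u3 m3 v3 u6 m6 v6
  simp only at v1 v2 v3 v4 v5 v6 v7 v8 v9 v10 v11
  clear n1 n2 n3 n4 n5 n6 n7 n8 n9 n10 n11 l1 l2 l3 l4 l5 l6 l7 l8 l9 l10 l11 zne h248 hL
  have q0 := tab_eq hM hV hτ (n := 64) (by decide) t0.1 t0.2.2
  have q1 := tab_eq hM hV hτ (n := 256) (by decide) t1.1 t1.2.2
  have q2 := tab_eq hM hV hτ (n := 64) (by decide) t2.1 t2.2.2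
  have q3 := tab_eq hM hV hτ (n := 64) (by decide) t3.1 t3.2.2
  have q4 := tab_eq hM hV hτ (n := 128) (by decide) t4.1 t4.2.2
  have q5 := tab_eq hM hV hτ (n := 512) (idx := fun i => i) (by decide) (fun i hi => hi) tab
  change _ = _ * (finrank (ZMod 3) ↥(fixL F (Lx _ _)) : ℤ) at q0 q1 q2 q3 q4 q5
  have b0 := mono (F := F) (Lx_sub t0.1)
  have b1 := mono (F := F) (Lx_sub t1.1)
  have b2 := mono (F := F) (Lx_sub t2.1)
  have b3 := mono (F := F) (Lx_sub t3.1)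
  have b4 := mono (F := F) (Lx_sub t4.1)
  generalize finrank (ZMod 3) ↥(fixL F (Lx 64 (look 9 xI0))) = d0 at *
  generalize finrank (ZMod 3) ↥(fixL F (Lx 256 (look 9 xI1))) = d1 at *
  generalize finrank (ZMod 3) ↥(fixL F (Lx 64 (look 9 xI2))) = d2 at *
  generalize finrank (ZMod 3) ↥(fixL F (Lx 64 (look 9 xI3))) = d3 at *
  generalize finrank (ZMod 3) ↥(fixL F (Lx 128 (look 9 xI4))) = d4 at *
  generalize finrank (ZMod 3) ↥(fixL F (Lx 512 fun i => i)) = d5 at *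
  rw [Finset.sum_congr rfl fun k hk => by rw [cnt_0 k (Finset.mem_range.1 hk)]] at q0
  rw [Finset.sum_congr rfl fun k hk => by rw [cnt_1 k (Finset.mem_range.1 hk)]] at q1
  rw [Finset.sum_congr rfl fun k hk => by rw [cnt_2 k (Finset.mem_range.1 hk)]] at q2
  rw [Finset.sum_congr rfl fun k hk => by rw [cnt_3 k (Finset.mem_range.1 hk)]] at q3
  rw [Finset.sum_congr rfl fun k hk => by rw [cnt_4 k (Finset.mem_range.1 hk)]] at q4
  rw [Finset.sum_congr rfl fun k hk => by rw [cnt_Q k (Finset.mem_range.1 hk)]] at q5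
  simp only [Finset.sum_range_succ, Finset.sum_range_zero, List.getD_cons_zero, List.getD_cons_succ, z0, v1, v2, v3,
    v4, v5, v6, v7, v8, v9, v10, v11] at q0 q1 q2 q3 q4 q5
  push_cast at q0 q1 q2 q3 q4 q5
  have g0 := gd_of (n := 64) (d := d0) (a := s0 u1 u2 u3 u4 u5 u6 u7 u8) (by norm_num)
    (by zify; rw [s0]; push_cast; linear_combination q0)
  have g1 := gd_of (n := 256) (d := d1) (a := s1 u1 u2 u3 u4 u5 u6 u7 u8 u9) (by norm_num)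
    (by zify; rw [s1]; push_cast; linear_combination q1)
  have g2 := gd_of (n := 64) (d := d2) (a := s2 u1 u2 u3 u4 u6 u9) (by norm_num)
    (by zify; rw [s2]; push_cast; linear_combination q2)
  have g3 := gd_of (n := 64) (d := d3) (a := s3 u1 u2 u3 u4 u5 u8) (by norm_num)
    (by zify; rw [s3]; push_cast; linear_combination q3)
  have g4 := gd_of (n := 128) (d := d4) (a := s4 u1 u2 u3 u4 u5 u6 u7 u8 u11) (by norm_num)
    (by zify; rw [s4]; push_cast; linear_combination q4)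
  have g5 := gd_of (n := 512) (d := d5) (a := s5 u1 u2 u3 u4 u5 u6 u7 u8 u9 u10 u11) (by norm_num)
    (by zify; rw [s5]; push_cast; linear_combination q5)
  clear q0 q1 q2 q3 q4 q5 v2 v3 v4 v5 v6 v7 v8 v9 v10 v11
  have key := cert u1 m1 u2 m2 u3 m3 u4 m4 u5 m5 u6 m6 u7 m7 u8 m8 u9 m9 g0.1 g1.1 g2.1 g3.1 u10 m10 u11 m11 g4.1 g5.1
    (by rw [g5.2, g0.2, Nat.ble_eq]; omega) (by rw [g5.2, g1.2, Nat.ble_eq]; omega)
    (by rw [g5.2, g2.2, Nat.ble_eq]; omega) (by rw [g5.2, g3.2, Nat.ble_eq]; omega)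
    (by rw [g5.2, g4.2, Nat.ble_eq]; omega)
  rw [g0.2, g5.2, Nat.blt_eq] at key
  refine ⟨?_, by omega⟩
  rw [hτ 1 (by norm_num), v1, key.2]
  norm_num

end Cfsg.Agent.H945.E83.Dim
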