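import Mathlib
import Cfsg.Agent.H945.E83.SpDim
import Cfsg.Agent.H540.E8C.End

/-!
# `Sp₆(2)` in `E₈(3)`: a non-zero fixed vector (S5919)
-/

set_option autoImplicit false
set_option maxRecDepth 100000

namespace Cfsg.Agent.H945.E83.Fix

open Cfsg Cfsg.Lie Cfsg.Agent.H657 IsLocalRing Module
open Cfsg.Agent.SporRec.TwoSp6.Sp Cfsg.Agent.H945.E83.Code Cfsg.Agent.H945.E83.Tab Cfsg.Agent.H945.E83.Data
open Cfsg.Agent.H942.Fun (look allB allB_spec)
open Cfsg.Agent.H942.Enum Cfsg.Agent.H942.E8Alc Cfsg.Agent.H942.Common Cfsg.Agent.H942.E8Val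
open Cfsg.Agent.H942.L7 (fixL)
open Cfsg.Agent.H945.E83.Dim
open Cfsg.Agent.H540.E8C.End (E LL ac ac_mul ac_one)

/-- the conjugate of a table -/
theorem conj_tab {n m : ℕ} {a b : ℕ → S} {T : ℕ → ℕ → ℕ} (h : Table n m a b T) (γ : S) :
    Table n m (fun i => γ⁻¹ * a i * γ) (fun j => γ⁻¹ * b j * γ) T where
  pos := h.pos
  one := by simp only [h.one]; group
  lt := h.lt
  mul := fun i hi j hj => by
    rw [← h.mul i hi j hj]
    group
  inj := h.inj
  par := h.par
  ne := fun i hi h0 hcon => by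
    apply h.ne i hi h0
    have : a i = γ * (γ⁻¹ * a i * γ) * γ⁻¹ := by group
    rw [this, hcon, mul_one, mul_inv_cancel]

/-- the conjugating element -/
noncomputable def γ : S := wT gw

theorem R_γ : R γ (wC gw) := R_w gw_lt

theorem conj_of {x q : S} {a b : ℕ} (hx : R x a) (hq : R q b) (h : mulC (wC gw) a = mulC b (wC gw)) :
    x = γ⁻¹ * q * γ := by
  have h1 : γ * x = q * γ := R_inj (R_mul R_γ hx) (by rw [h]; exact R_mul hq R_γ)
  rw [mul_assoc, ← h1, ← mul_assoc, inv_mul_cancel, one_mul]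

/-- the stabiliser of a vector -/
def stab (F : S →* E) (w : LL) : Subgroup S where
  carrier := {x | ac (F x) w = w}
  one_mem' := by
    show ac (F 1) w = w
    rw [map_one, ac_one]
  mul_mem' := fun {a b} ha hb => by
    show ac (F (a * b)) w = w
    rw [map_mul, ac_mul, hb, ha]
  inv_mem' := fun {a} ha => by
    show ac (F a⁻¹) w = w
    have ha' : ac (F a) w = w := ha
    conv_lhs => rw [← ha']
    rw [← ac_mul, ← map_mul, inv_mul_cancel, map_one, ac_one]

theorem mem_stab {F : S →* E} {w : LL} {x : S} : x ∈ stab F w ↔ ac (F x) w = w := Iff.rfl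

theorem mem_of_gens {n m : ℕ} {a b : ℕ → S} {T : ℕ → ℕ → ℕ} (h : Table n m a b T) {K : Subgroup S}
    (hb : ∀ j < m, b j ∈ K) : ∀ i < n, a i ∈ K := by
  intro i
  induction i using Nat.strong_induction_on with
  | _ i ih =>
    intro hi
    by_cases h0 : i = 0
    · rw [h0, h.one]
      exact K.one_mem
    · obtain ⟨i', h1, j, hj, h2⟩ := h.par i hi h0
      rw [← h2, ← h.mul i' (h1.trans hi) j hj]
      exact K.mul_mem (ih i' h1 (h1.trans hi)) (hb j hj)

/-- generation: a subgroup containing the Sylow subgroup and the conjugate is everything -/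
theorem eq_top {K : Subgroup S} (h1 : ∀ i < 512, e i ∈ K) (h2 : ∀ i < 512, γ⁻¹ * e i * γ ∈ K) : K = ⊤ := by
  -- the generators
  have hq : ∀ k < 4, wT (qw k) ∈ K := by
    intro k hk
    have h3 := tab.mul 0 (by norm_num) k hk
    rw [tab.one, one_mul] at h3
    rw [h3]
    exact h1 _ (tab.lt 0 (by norm_num) k hk)
  have hq' : ∀ k < 4, γ⁻¹ * wT (qw k) * γ ∈ K := by
    intro k hk
    have h3 := tab.mul 0 (by norm_num) k hk
    rw [tab.one, one_mul] at h3
    rw [h3]
    exact h2 _ (tab.lt 0 (by norm_num) k hk)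
  have hk : ∀ k < 8, ∃ x ∈ K, R x (cG k) := by
    intro k hk
    by_cases h4 : k < 4
    · exact ⟨_, hq k h4, by rw [(cG_eq k h4).1]; exact R_q k h4⟩
    · obtain ⟨j, rfl⟩ : ∃ j, k = 4 + j := ⟨k - 4, by omega⟩
      have hj : j < 4 := by omega
      refine ⟨_, hq' j hj, ?_⟩
      -- the conjugate has the code `cG (4 + j)`
      intro c hc
      have h5 : act γ (enc (col (cG (4 + j)) c)) = act (wT (qw j) * γ) (enc (2 ^ c)) := by
        rw [act_code R_γ (col_lt _ _), R_mul (R_q j hj) R_γ c hc, ← (cG_eq j hj).2, col_mulC _ _ c hc]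
      rw [mul_assoc, act_mul γ⁻¹, ← h5, ← act_mul, inv_mul_cancel, act_one]
  have hu : ∀ i < 63, uu i < 64 := fun i _ => Nat.mod_lt _ (by norm_num)
  have ht : ∀ i < 63, tr (enc (uu i)) ∈ K := by
    intro i
    induction i using Nat.strong_induction_on with
    | _ i ih =>
      intro hi
      cases i with
      | zero =>
        rw [uu_zero.1]
        have h3 : tr (enc 8) = e 69 := R_inj (R_trC (by norm_num)) (by rw [← uu_zero.2]; exact he 69 (by norm_num))
        rw [h3]
        exact h1 69 (by norm_num)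
      | succ i =>
        have h3 := allB_spec chk_u i (by omega)
        simp only [Bool.and_eq_true, Nat.blt_eq, Nat.ble_eq] at h3
        obtain ⟨h4, h5, h6⟩ := h3
        obtain ⟨x, hx, hR⟩ := hk _ h5
        have h7 := ih (look 6 pUp i) (by omega) (by omega)
        rw [← Nat.eq_of_beq_eq_true h6, ← act_code hR (hu _ (by omega)), ← conj_tr]
        exact K.mul_mem (K.mul_mem hx h7) (K.inv_mem hx)
  rw [eq_top_iff, ← closure_v, Subgroup.closure_le]
  rintro _ ⟨i, rfl⟩
  have h8 : vc i < 64 ∧ vc i ≠ 0 := by revert i; decide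
  obtain ⟨k, hk, hk'⟩ := uu_surj _ h8.1 h8.2
  show tr (enc (vc i)) ∈ K
  rw [← hk']
  exact ht k hk

variable {M : Ideal AlgInt} {V : ValuationSubring ℂ} (hM : IsPModular 3 M) (hV : Above M V)
  [CharP (ResidueField V) 3] {F : S →* ↥(chevE8.group (ZMod 3))} (hF : Function.Injective F)

include hM hV in
theorem dim_conj : finrank (ZMod 3) ↥(fixL F ((List.range 512).map fun i => γ⁻¹ * e i * γ)) =
    finrank (ZMod 3) ↥(fixL F (Lx 512 fun i => i)) := by
  have h1 := dim_table hM hV F tab (by decide)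
  have h2 := dim_table hM hV F (conj_tab tab γ) (by decide)
  rw [Finset.sum_congr rfl fun i _ => bc_conj' F (e i) γ, h1] at h2
  have h3 : ((512 : ℕ) : ℂ) ≠ 0 := by norm_num
  have h4 := mul_left_cancel₀ h3 h2
  exact_mod_cast h4.symm

include hF in
/-- **The fixed space of `Sp₆(2)` in the adjoint module of `E₈(3)` is not zero.** -/
theorem exists_fixed : ∃ w : LL, w ≠ 0 ∧ ∀ x : S, ac (F x) w = w := by
  obtain ⟨M, V, hM, hV, hc⟩ := exists_V
  have h1 := (main hM hV hF).2
  have h2 := dim_conj (F := F) hM hV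
  set A := fixL F (Lx 512 fun i => i) with hA
  set B := fixL F ((List.range 512).map fun i => γ⁻¹ * e i * γ) with hB
  have hAm : ∀ w ∈ A, ∀ i < 512, e i ∈ stab F w := fun w hw i hi =>
    hw (e i) (List.mem_map.2 ⟨i, List.mem_range.2 hi, rfl⟩)
  have hBm : ∀ w ∈ B, ∀ i < 512, γ⁻¹ * e i * γ ∈ stab F w := fun w hw i hi =>
    hw _ (List.mem_map.2 ⟨i, List.mem_range.2 hi, rfl⟩)
  have h3 : A ⊔ B ≤ fixL F (Lx 64 (look 9 xI0)) := by
    rw [sup_le_iff]
    constructor
    · intro w hw g hg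
      obtain ⟨i, hi, rfl⟩ := List.mem_map.1 hg
      exact hAm w hw _ (t0.1 i (List.mem_range.1 hi))
    · intro w hw g hg
      obtain ⟨i, hi, rfl⟩ := List.mem_map.1 hg
      refine mem_of_gens t0.2.2 (K := stab F w) (fun j hj => ?_) i (List.mem_range.1 hi)
      obtain ⟨h4, h5⟩ := chk_g j hj
      rw [conj_of (he _ (t0.2.1 j hj)) (he _ h4) h5]
      exact hBm w hw _ h4
  have h4 := Submodule.finrank_sup_add_finrank_inf_eq A B
  have h5 := Submodule.finrank_mono h3
  have h6 : 0 < finrank (ZMod 3) ↥(A ⊓ B) := by omega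
  have h7 : A ⊓ B ≠ ⊥ := by
    intro h
    rw [h, finrank_bot] at h6
    exact absurd h6 (lt_irrefl 0)
  obtain ⟨w, hw, hw0⟩ := Submodule.exists_mem_ne_zero_of_ne_bot h7
  have h8 := eq_top (K := stab F w) (hAm w hw.1) (hBm w hw.2)
  exact ⟨w, hw0, fun x => mem_stab.1 (h8 ▸ Subgroup.mem_top x)⟩

include hM hV hF in
/-- transvections have the value `24` -/
theorem val_tr {u : Cfsg.Agent.SporRec.TwoSp6.Sp.V} (hu : u ≠ 0) : bc 3 (adj V F) (tr u) = 24 := by
  have h1 := (main hM hV hF).1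
  have h3 : tr (enc 8) = e 69 := R_inj (R_trC (by norm_num)) (by rw [← uu_zero.2]; exact he 69 (by norm_num))
  have h4 := (cls (φ := fun g => bc 3 (adj V F) g) (fun g h => bc_conj' F g h) 69 (by norm_num)).2
  have h5 : rt 69 = 1 := by decide +kernel
  rw [h5, h1, ← h3] at h4
  have h8 : enc 8 ≠ 0 := by
    rw [← enc_zero]
    exact fun h => absurd (enc_inj 8 (by norm_num) 0 (by norm_num) h) (by norm_num)
  obtain ⟨g, hg⟩ := exists_act h8 hu
  rw [← hg, ← conj_tr, ← h4]
  have := bc_conj' (V := V) F (tr (enc 8)) g⁻¹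
  rwa [inv_inv] at this

end Cfsg.Agent.H945.E83.Fix
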