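import Mathlib
import Cfsg.Agent.H945.E83.SpData

/-!
# Data: one more subgroup of the Sylow `2`-subgroup of `Sp₆(2)` (S5919)
-/

set_option autoImplicit false
set_option maxRecDepth 100000

namespace Cfsg.Agent.H945.E83.Data

open Cfsg.Agent.H942.Fun (look allB allB_spec)
open Cfsg.Agent.SporRec.TwoSp6.Sp Cfsg.Agent.H945.E83.Code Cfsg.Agent.H945.E83.Tab
open Cfsg.Agent.H942.Enum
open Cfsg.Agent.H942.Forest (cntK)

/-- packed, 9 bits per entry -/
def xI5 : ℕ := 0x896c5ea9367a927d03a4dd27956cf7df30f6459f38ac7e5b83834a1a94895066aaf55600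

/-- packed, 9 bits per entry -/
def xT5 : ℕ := 0xd8703c170c07c28150c07c26190987c2c110905c1e100e0781c1d07078340c0686c3a0b0602c3a0f0e06c141a04834121a0806410110406428180b81c2c06090182c150a8500a040284c2411020401e030100c1c0d060081401058041409038001000038180a040000c0401

/-- packed, 9 bits per entry -/
def xPi5 : ℕ := 0x6c2e140984c220f07038180b058281209040200e06030140804018080401008000000

/-- packed, 4 bits per entry -/
def xPj5 : ℕ := 0x1112111211210212102101001021210

/-- packed, 9 bits per entry -/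
def xG5 : ℕ := 0x3557aab

/-- packed, 4 bits per entry -/
def xV5 : ℕ := 0x120

theorem chk_5 : chkX 512 32 3 EE (look 9 xI5) (look 9 xG5) (look 4 xV5) (fun i j => look 9 xT5 (3 * i + j))
    (look 9 xPi5) (look 4 xPj5) = true := by
  decide +kernel

theorem cnt_5 : ∀ k < 12, cntK 32 (fun i => rt (look 9 xI5 i)) k = [1, 0, 0, 9, 2, 0, 12, 8, 0, 0, 0, 0].getD k 0 := by
  decide +kernel

end Cfsg.Agent.H945.E83.Data
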