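import Mathlib
import Cfsg.Agent.H945.E83.SpDim
import Cfsg.Agent.H945.E83.SpDataB
import Cfsg.Agent.H945.E83.CertB

/-!
# `Sp₆(2)` in `E₈(3)`: the values of the Brauer character on the `2`-elements (S5919)
-/

set_option autoImplicit false
set_option maxRecDepth 100000

namespace Cfsg.Agent.H945.E83.Dim

open Cfsg Cfsg.Lie Cfsg.Agent.H657 IsLocalRing Module
open Cfsg.Agent.SporRec.TwoSp6.Sp Cfsg.Agent.H945.E83.Code Cfsg.Agent.H945.E83.Tab Cfsg.Agent.H945.E83.Data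
open Cfsg.Agent.H942.Fun (look allB allB_spec)
open Cfsg.Agent.H942.Forest (cntK sum_of)
open Cfsg.Agent.H942.Enum Cfsg.Agent.H942.E8Alc Cfsg.Agent.H942.Common Cfsg.Agent.H942.E8Val
open Cfsg.Agent.H942.L7 (fixL)
open Cfsg.Agent.H945.E83.Cert

theorem t5 : (∀ i < 32, look 9 xI5 i < 512) ∧ (∀ j < 3, look 9 xG5 j < 512) ∧
    Table 32 3 (fun i => e (look 9 xI5 i)) (fun j => e (look 9 xG5 j)) (fun i j => look 9 xT5 (3 * i + j)) :=
  tabX he tab (by norm_num) chk_5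

/-- the values -/
def τ₀ (k : ℕ) : ℤ := [248, 24, -8, -8, 24, 4, 0, 4, 4, 64, -4, 16].getD k 0

variable {M : Ideal AlgInt} {V : ValuationSubring ℂ} (hM : IsPModular 3 M) (hV : Above M V)
  [CharP (ResidueField V) 3] {F : S →* ↥(chevE8.group (ZMod 3))} (hF : Function.Injective F)

include hM hV hF in
theorem main_vals : (∀ k < 12, bc 3 (adj V F) (e (rp k)) = τ₀ k) ∧
    finrank (ZMod 3) ↥(fixL F (Lx 64 (look 9 xI0))) = 8 ∧ finrank (ZMod 3) ↥(fixL F (Lx 512 fun i => i)) = 6 := by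
  obtain ⟨τ, hτ, hL, h248⟩ := vals V hF
  have z0 : τ 0 = 248 := (h248 0 (by norm_num)).1 rfl
  have zne : ∀ k < 12, k ≠ 0 → τ k ≠ 248 := fun k hk h0 h => h0 ((h248 k hk).2 h)
  have n1 := zne 1 (by norm_num) (by norm_num)
  have n2 := zne 2 (by norm_num) (by norm_num)
  have n3 := zne 3 (by norm_num) (by norm_num)
  have n4 := zne 4 (by norm_num) (by norm_num)
  have n5 := zne 5 (by norm_num) (by norm_num)
  have n6 := zne 6 (by norm_num) (by norm_num)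
  have n7 := zne 7 (by norm_num) (by norm_num)
  have n8 := zne 8 (by norm_num) (by norm_num)
  have n9 := zne 9 (by norm_num) (by norm_num)
  have n10 := zne 10 (by norm_num) (by norm_num)
  have n11 := zne 11 (by norm_num) (by norm_num)
  have l1 : (τ 1, τ 0, τ 0) ∈ L8 := hL 1 (by norm_num)
  have l2 : (τ 2, τ 0, τ 0) ∈ L8 := hL 2 (by norm_num)
  have l3 : (τ 3, τ 0, τ 0) ∈ L8 := hL 3 (by norm_num)
  have l4 : (τ 4, τ 0, τ 0) ∈ L8 := hL 4 (by norm_num)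
  have l5 : (τ 5, τ 4, τ 0) ∈ L8 := hL 5 (by norm_num)
  have l6 : (τ 6, τ 3, τ 0) ∈ L8 := hL 6 (by norm_num)
  have l7 : (τ 7, τ 4, τ 0) ∈ L8 := hL 7 (by norm_num)
  have l8 : (τ 8, τ 4, τ 0) ∈ L8 := hL 8 (by norm_num)
  have l9 : (τ 9, τ 3, τ 0) ∈ L8 := hL 9 (by norm_num)
  have l10 : (τ 10, τ 9, τ 3) ∈ L8 := hL 10 (by norm_num)
  have l11 : (τ 11, τ 6, τ 3) ∈ L8 := hL 11 (by norm_num)
  obtain ⟨u1, m1, v1⟩ := L8a _ l1 z0 z0 n1
  obtain ⟨u2, m2, v2⟩ := L8a _ l2 z0 z0 n2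
  obtain ⟨u3, m3, v3⟩ := L8a _ l3 z0 z0 n3
  obtain ⟨u4, m4, v4⟩ := L8a _ l4 z0 z0 n4
  obtain ⟨u5, m5, v5⟩ := L8b _ l5 z0 n5 n4 u4 m4 v4
  obtain ⟨u6, m6, v6⟩ := L8b _ l6 z0 n6 n3 u3 m3 v3
  obtain ⟨u7, m7, v7⟩ := L8b _ l7 z0 n7 n4 u4 m4 v4
  obtain ⟨u8, m8, v8⟩ := L8b _ l8 z0 n8 n4 u4 m4 v4
  obtain ⟨u9, m9, v9⟩ := L8b _ l9 z0 n9 n3 u3 m3 v3
  obtain ⟨u10, m10, v10⟩ := L8c _ l10 n10 n9 n3 u3 m3 v3 u9 m9 v9
  obtain ⟨u11, m11, v11⟩ := L8c _ l11 n11 n6 n3 u3 m3 v3 u6 m6 v6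
  simp only at v1 v2 v3 v4 v5 v6 v7 v8 v9 v10 v11
  clear n1 n2 n3 n4 n5 n6 n7 n8 n9 n10 n11 l1 l2 l3 l4 l5 l6 l7 l8 l9 l10 l11 zne h248 hL
  have q0 := tab_eq hM hV hτ (n := 64) (by decide) t0.1 t0.2.2
  have q1 := tab_eq hM hV hτ (n := 256) (by decide) t1.1 t1.2.2
  have q2 := tab_eq hM hV hτ (n := 64) (by decide) t2.1 t2.2.2
  have q3 := tab_eq hM hV hτ (n := 64) (by decide) t3.1 t3.2.2
  have q4 := tab_eq hM hV hτ (n := 128) (by decide) t4.1 t4.2.2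
  have q6 := tab_eq hM hV hτ (n := 32) (by decide) t5.1 t5.2.2
  have q5 := tab_eq hM hV hτ (n := 512) (idx := fun i => i) (by decide) (fun i hi => hi) tab
  change _ = _ * (finrank (ZMod 3) ↥(fixL F (Lx _ _)) : ℤ) at q0 q1 q2 q3 q4 q5 q6
  have b0 := mono (F := F) (Lx_sub t0.1)
  have b1 := mono (F := F) (Lx_sub t1.1)
  have b2 := mono (F := F) (Lx_sub t2.1)
  have b3 := mono (F := F) (Lx_sub t3.1)
  have b4 := mono (F := F) (Lx_sub t4.1)
  have b6 := mono (F := F) (Lx_sub t5.1)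
  generalize finrank (ZMod 3) ↥(fixL F (Lx 64 (look 9 xI0))) = d0 at *
  generalize finrank (ZMod 3) ↥(fixL F (Lx 256 (look 9 xI1))) = d1 at *
  generalize finrank (ZMod 3) ↥(fixL F (Lx 64 (look 9 xI2))) = d2 at *
  generalize finrank (ZMod 3) ↥(fixL F (Lx 64 (look 9 xI3))) = d3 at *
  generalize finrank (ZMod 3) ↥(fixL F (Lx 128 (look 9 xI4))) = d4 at *
  generalize finrank (ZMod 3) ↥(fixL F (Lx 32 (look 9 xI5))) = d6 at *
  generalize finrank (ZMod 3) ↥(fixL F (Lx 512 fun i => i)) = d5 at *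
  rw [Finset.sum_congr rfl fun k hk => by rw [cnt_0 k (Finset.mem_range.1 hk)]] at q0
  rw [Finset.sum_congr rfl fun k hk => by rw [cnt_1 k (Finset.mem_range.1 hk)]] at q1
  rw [Finset.sum_congr rfl fun k hk => by rw [cnt_2 k (Finset.mem_range.1 hk)]] at q2
  rw [Finset.sum_congr rfl fun k hk => by rw [cnt_3 k (Finset.mem_range.1 hk)]] at q3
  rw [Finset.sum_congr rfl fun k hk => by rw [cnt_4 k (Finset.mem_range.1 hk)]] at q4
  rw [Finset.sum_congr rfl fun k hk => by rw [cnt_5 k (Finset.mem_range.1 hk)]] at q6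
  rw [Finset.sum_congr rfl fun k hk => by rw [cnt_Q k (Finset.mem_range.1 hk)]] at q5
  simp only [Finset.sum_range_succ, Finset.sum_range_zero, List.getD_cons_zero, List.getD_cons_succ, z0, v1, v2, v3,
    v4, v5, v6, v7, v8, v9, v10, v11] at q0 q1 q2 q3 q4 q5 q6
  push_cast at q0 q1 q2 q3 q4 q5 q6
  have g0 := gd_of (n := 64) (d := d0) (a := s0 u1 u2 u3 u4 u5 u6 u7 u8) (by norm_num)
    (by zify; rw [s0]; push_cast; linear_combination q0)
  have g1 := gd_of (n := 256) (d := d1) (a := s1 u1 u2 u3 u4 u5 u6 u7 u8 u9) (by norm_num)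
    (by zify; rw [s1]; push_cast; linear_combination q1)
  have g2 := gd_of (n := 64) (d := d2) (a := s2 u1 u2 u3 u4 u6 u9) (by norm_num)
    (by zify; rw [s2]; push_cast; linear_combination q2)
  have g3 := gd_of (n := 64) (d := d3) (a := s3 u1 u2 u3 u4 u5 u8) (by norm_num)
    (by zify; rw [s3]; push_cast; linear_combination q3)
  have g4 := gd_of (n := 128) (d := d4) (a := s4 u1 u2 u3 u4 u5 u6 u7 u8 u11) (by norm_num)
    (by zify; rw [s4]; push_cast; linear_combination q4)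
  have g5 := gd_of (n := 512) (d := d5) (a := s5 u1 u2 u3 u4 u5 u6 u7 u8 u9 u10 u11) (by norm_num)
    (by zify; rw [s5]; push_cast; linear_combination q5)
  have g6 := gd_of (n := 32) (d := d6) (a := s6 u3 u4 u6 u7) (by norm_num)
    (by zify; rw [s6]; push_cast; linear_combination q6)
  clear q0 q1 q2 q3 q4 q5 q6
  have key := certU u1 m1 u2 m2 u3 m3 u4 m4 u5 m5 u6 m6 u7 m7 u8 m8 u9 m9 g0.1 g1.1 g2.1 g3.1 g6.1 u10 m10 u11 m11 g4.1 g5.1
    (by rw [g5.2, g0.2, Nat.ble_eq]; omega) (by rw [g5.2, g1.2, Nat.ble_eq]; omega)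
    (by rw [g5.2, g2.2, Nat.ble_eq]; omega) (by rw [g5.2, g3.2, Nat.ble_eq]; omega)
    (by rw [g5.2, g4.2, Nat.ble_eq]; omega) (by rw [g5.2, g6.2, Nat.ble_eq]; omega)
  simp only [List.cons.injEq, and_true] at key
  obtain ⟨rfl, rfl, rfl, rfl, rfl, rfl, rfl, rfl, rfl, rfl, rfl⟩ := key
  have g0' := g0.2
  have g5' := g5.2
  norm_num [s0] at g0'
  norm_num [s5] at g5'
  refine ⟨fun k hk => ?_, by omega, by omega⟩
  rw [hτ k hk]
  congr 1
  interval_cases k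
  · exact z0
  · exact v1
  · exact v2
  · exact v3
  · exact v4
  · exact v5
  · exact v6
  · exact v7
  · exact v8
  · exact v9
  · exact v10
  · exact v11

end Cfsg.Agent.H945.E83.Dim
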