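import Mathlib
import Cfsg.Agent.H945.E83.SpVals
import Cfsg.Agent.H945.E83.SpFix
import Cfsg.Agent.H942.S62.Iface

/-!
# `Sp₆(2)` in `E₈(3)`: dimensions of fixed spaces of the group and of a parabolic subgroup (S5919)
-/

set_option autoImplicit false
set_option maxRecDepth 100000

namespace Cfsg.Agent.H945.E83.NumA

open Cfsg Cfsg.Lie Cfsg.Agent.H657 IsLocalRing Module
open Cfsg.Agent.SporRec.TwoSp6.Sp Cfsg.Agent.H945.E83.Code Cfsg.Agent.H945.E83.Tab Cfsg.Agent.H945.E83.Data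
open Cfsg.Agent.H942.Fun (look allB allB_spec)
open Cfsg.Agent.H942.Enum Cfsg.Agent.H942.E8Alc Cfsg.Agent.H942.Common Cfsg.Agent.H942.E8Val
open Cfsg.Agent.H942.L7 (fixL)
open Cfsg.Agent.H945.E83.Dim Cfsg.Agent.H945.E83.Fix
open Cfsg.Agent.H540.E8C.End (E LL ac ac_mul ac_one fixV)
open Cfsg.Agent.H942.S62 (Sp2 V6 mv e0 P1)

variable {F : Sp2 →* E}

/-- **The fixed space of `Sp₆(2)` has dimension at least four.** -/
theorem four_le (hF : Function.Injective F) : 4 ≤ finrank (ZMod 3) ↥(fixV F.range) := by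
  obtain ⟨M, V, hM, hV, hc⟩ := exists_V
  obtain ⟨-, hI, hQ⟩ := main_vals hM hV hF
  have h2 := dim_conj (F := F) hM hV
  set A := fixL F (Lx 512 fun i => i) with hA
  set B := fixL F ((List.range 512).map fun i => γ⁻¹ * e i * γ) with hB
  have hAm : ∀ w ∈ A, ∀ i < 512, e i ∈ stab F w := fun w hw i hi =>
    hw (e i) (List.mem_map.2 ⟨i, List.mem_range.2 hi, rfl⟩)
  have hBm : ∀ w ∈ B, ∀ i < 512, γ⁻¹ * e i * γ ∈ stab F w := fun w hw i hi =>
    hw _ (List.mem_map.2 ⟨i, List.mem_range.2 hi, rfl⟩)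
  have h3 : A ⊔ B ≤ fixL F (Lx 64 (look 9 xI0)) := by
    rw [sup_le_iff]
    constructor
    · intro w hw g hg
      obtain ⟨i, hi, rfl⟩ := List.mem_map.1 hg
      exact hAm w hw _ (Dim.t0.1 i (List.mem_range.1 hi))
    · intro w hw g hg
      obtain ⟨i, hi, rfl⟩ := List.mem_map.1 hg
      refine mem_of_gens Dim.t0.2.2 (K := stab F w) (fun j hj => ?_) i (List.mem_range.1 hi)
      obtain ⟨h4, h5⟩ := chk_g j hj
      rw [conj_of (he _ (Dim.t0.2.1 j hj)) (he _ h4) h5]
      exact hBm w hw _ h4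
  have h4 := Submodule.finrank_sup_add_finrank_inf_eq A B
  have h5 := Submodule.finrank_mono h3
  have h7 : A ⊓ B ≤ fixV F.range := by
    intro w hw g hg
    obtain ⟨x, rfl⟩ := hg
    exact mem_stab.1 ((eq_top (K := stab F w) (hAm w hw.1) (hBm w hw.2)) ▸ Subgroup.mem_top x)
  have h8 := Submodule.finrank_mono h7
  have h9 : 4 ≤ finrank (ZMod 3) ↥(A ⊓ B) := by omega
  exact h9.trans h8

theorem q_fix : ∀ j < 4, ap (qG j) 32 = 32 := by decide +kernel

/-- the Sylow `2`-subgroup fixes the vector with code `32` -/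
theorem e_fix : ∀ i < 512, act (e i) (enc 32) = enc 32 := by
  intro i
  induction i using Nat.strong_induction_on with
  | _ i ih =>
    intro hi
    by_cases h0 : i = 0
    · rw [h0, tab.one, act_one]
    · obtain ⟨i', h1, j, hj, h2⟩ := tab.par i hi h0
      rw [← h2, ← tab.mul i' (h1.trans hi) j hj, act_mul, act_code (R_q j hj) (by norm_num), q_fix j hj,
        ih i' h1 (h1.trans hi)]

theorem e0_ne : (e0 : V6) ≠ 0 := by
  intro h
  have := congrFun h (Sum.inl 0)
  simp [e0] at this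

/-- **The fixed space of the stabiliser of a vector has dimension at most seven (in fact six).** -/
theorem P1_le (hF : Function.Injective F) : finrank (ZMod 3) ↥(fixV (P1.map F)) ≤ 7 := by
  obtain ⟨M, V, hM, hV, hc⟩ := exists_V
  obtain ⟨-, -, hQ⟩ := main_vals hM hV hF
  have h8 : enc 32 ≠ 0 := by
    rw [← enc_zero]
    exact fun h => absurd (enc_inj 32 (by norm_num) 0 (by norm_num) h) (by norm_num)
  obtain ⟨g, hg⟩ := exists_act e0_ne h8
  -- `g` maps `e0` to `enc 32`
  have h1 := dim_table hM hV F tab (by decide)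
  have h2 := dim_table hM hV F (conj_tab tab g) (by decide)
  rw [Finset.sum_congr rfl fun i _ => bc_conj' F (e i) g, h1] at h2
  have h3 : ((512 : ℕ) : ℂ) ≠ 0 := by norm_num
  have h4 := mul_left_cancel₀ h3 h2
  have h5 : finrank (ZMod 3) ↥(fixL F ((List.range 512).map fun i => g⁻¹ * e i * g)) = 6 := by
    rw [← hQ]
    exact_mod_cast h4.symm
  refine le_trans (Submodule.finrank_mono (t := fixL F ((List.range 512).map fun i => g⁻¹ * e i * g)) ?_) (by omega)
  intro w hw x hx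
  obtain ⟨i, hi, rfl⟩ := List.mem_map.1 hx
  refine hw _ ⟨g⁻¹ * e i * g, ?_, rfl⟩
  show mv (g⁻¹ * e i * g) e0 = e0
  change act (g⁻¹ * e i * g) e0 = e0
  rw [act_mul, act_mul, hg, e_fix i (List.mem_range.1 hi), ← hg, ← act_mul, inv_mul_cancel, act_one]

end Cfsg.Agent.H945.E83.NumA
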