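import Mathlib
import Cfsg.Agent.H942.S62.Num
import Cfsg.Agent.H990.S62.Val5
import Cfsg.Agent.H859.S62.EmbO8
import Cfsg.Agent.H757.S62.AutO8
import Cfsg.Agent.H95.S62.RowO8
import Cfsg.Agent.H108.S62.AutSp
import Cfsg.Agent.H976.S62.InvY0
import Cfsg.Agent.H835.S62.RowSp

/-!
# The rows `Sp₆(2)` and `Ω₈⁺(2)` of S5919
-/

set_option autoImplicit false

namespace Cfsg.Agent.H945.E83.Rows

open Cfsg.Agent.H942.S62

theorem numSp : NumSp := Cfsg.Agent.H942.S62.numSp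
  (fun V _ F _ hg hne => Cfsg.Agent.H990.S62.val5 V F hg hne)

/-- **The row `Ω₈⁺(2)`.** -/
theorem rowO8 : RowO8 := Cfsg.Agent.H95.S62.row_o8 numSp Cfsg.Agent.H859.S62.embO8 Cfsg.Agent.H757.S62.autO8

/-- **The row `Sp₆(2)`.** -/
theorem rowSp : RowSp := Cfsg.Agent.H835.S62.rowSp numSp Cfsg.Agent.H108.S62.autSp Cfsg.Agent.H976.S62.invY0

end Cfsg.Agent.H945.E83.Rows
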