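import Mathlib
import Cfsg.Agent.H945.E83.Code
import Cfsg.Agent.H942.Common
import Cfsg.Agent.H451.L7.Dim

/-!
# Tables of subgroups of `Sp₆(2)` and dimensions of fixed spaces (S5919)
-/

set_option autoImplicit false

namespace Cfsg.Agent.H945.E83.Tab

open Cfsg Cfsg.Lie Cfsg.Agent.H657 IsLocalRing Module
open Cfsg.Agent.SporRec.TwoSp6.Sp Cfsg.Agent.H945.E83.Code
open Cfsg.Agent.H942.Fun (look allB allB_spec)
open Cfsg.Agent.H942.Enum Cfsg.Agent.H942.E8Alc Cfsg.Agent.H942.Common
open Cfsg.Agent.H942.L7 (fixL)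

/-! ### transvections and words -/

/-- the image of a vector under a transvection, on codes -/
def tv (u c : ℕ) : ℕ := bif fN c u then c ^^^ u else c

theorem act_tv (u c : ℕ) : act (tr (enc u)) (enc c) = enc (tv u c) := by
  rw [act_tr]
  show enc c + om (enc c) (enc u) • enc u = _
  rw [om_enc]
  unfold tv
  cases h : fN c u
  · rw [cond_false, if_neg (by simp), zero_smul, add_zero]
  · rw [cond_true, if_pos rfl, one_smul, enc_xor]

/-- the code of a transvection -/
def trC (u : ℕ) : ℕ := tv u 1 + 64 * (tv u 2 + 64 * (tv u 4 + 64 * (tv u 8 + 64 * (tv u 16 + 64 * tv u 32))))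

theorem tv_lt {u c : ℕ} (hu : u < 64) (hc : c < 64) : tv u c < 64 := by
  unfold tv
  cases fN c u
  · exact hc
  · exact xor_lt hc hu

theorem R_trC {u : ℕ} (hu : u < 64) : R (tr (enc u)) (trC u) := by
  intro j hj
  rw [act_tv]
  congr 1
  have h0 : tv u 1 < 64 := tv_lt hu (by norm_num)
  have h1 : tv u 2 < 64 := tv_lt hu (by norm_num)
  have h2 : tv u 4 < 64 := tv_lt hu (by norm_num)
  have h3 : tv u 8 < 64 := tv_lt hu (by norm_num)
  have h4 : tv u 16 < 64 := tv_lt hu (by norm_num)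
  have h5 : tv u 32 < 64 := tv_lt hu (by norm_num)
  rw [col_eq, trC]
  interval_cases j <;> norm_num <;> omega

/-- products of transvections -/
def wT (w : List ℕ) : S := (w.map fun u => tr (enc u)).prod

def wC (w : List ℕ) : ℕ := w.foldr (fun u a => mulC (trC u) a) oneC

theorem R_w {w : List ℕ} (hw : ∀ u ∈ w, u < 64) : R (wT w) (wC w) := by
  induction w with
  | nil => exact R_one
  | cons i w ih =>
    rw [wT, List.map_cons, List.prod_cons]
    exact R_mul (R_trC (hw i (by simp))) (ih fun u hu => hw u (by simp [hu]))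

/-! ### the table of a big subgroup -/

/-- `E` codes of the elements, `G` of the generators (involutions), `T` the table -/
def chkQ (n m : ℕ) (E G : ℕ → ℕ) (T : ℕ → ℕ → ℕ) (pi pj : ℕ → ℕ) : Bool :=
  Nat.beq (E 0) oneC &&
  (allB (fun i => allB (fun j => Nat.blt (T i j) n && (Nat.beq (mulC (E i) (G j)) (E (T i j)) &&
    Nat.beq (T (T i j) j) i)) m) n &&
  allB (fun i => Nat.ble (pi i) i && (Nat.blt (pj i) m && (Nat.beq (T (pi i) (pj i)) (i + 1) &&
    !(Nat.beq (E (i + 1)) oneC)))) (n - 1))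

theorem exists_tab {n m : ℕ} {E G : ℕ → ℕ} {T : ℕ → ℕ → ℕ} {pi pj : ℕ → ℕ} {gen : ℕ → S} (hn : 0 < n)
    (hgen : ∀ j < m, R (gen j) (G j)) (h : chkQ n m E G T pi pj = true) :
    ∃ e : ℕ → S, (∀ i < n, R (e i) (E i)) ∧ Table n m e gen T := by
  classical
  rw [chkQ, Bool.and_eq_true, Bool.and_eq_true] at h
  obtain ⟨h0, h1, h2⟩ := h
  have h0' : E 0 = oneC := Nat.eq_of_beq_eq_true h0
  have key : ∀ i < n, ∃ g : S, R g (E i) ∧ E i < 2 ^ 36 := by
    intro i
    induction i using Nat.strong_induction_on with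
    | _ i ih =>
      intro hi
      cases i with
      | zero => exact ⟨1, by rw [h0']; exact R_one, by rw [h0']; norm_num [oneC]⟩
      | succ i =>
        have h3 := allB_spec h2 i (by omega)
        simp only [Bool.and_eq_true, Nat.blt_eq, Nat.ble_eq] at h3
        obtain ⟨g, hg, -⟩ := ih (pi i) (by omega) (by omega)
        have h4 := allB_spec (allB_spec h1 (pi i) (by omega)) (pj i) h3.2.1
        simp only [Bool.and_eq_true, Nat.blt_eq] at h4
        have h5 := Nat.eq_of_beq_eq_true h4.2.1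
        rw [Nat.eq_of_beq_eq_true h3.2.2.1] at h5
        exact ⟨g * gen (pj i), by rw [← h5]; exact R_mul hg (hgen _ h3.2.1), by rw [← h5]; exact mulC_lt _ _⟩
  let e : ℕ → S := fun i => if hi : i < n then (key i hi).choose else 1
  have he : ∀ i < n, R (e i) (E i) := by
    intro i hi
    simp only [e, dif_pos hi]
    exact (key i hi).choose_spec.1
  have hlt : ∀ i < n, E i < 2 ^ 36 := fun i hi => (key i hi).choose_spec.2
  have e0 : e 0 = 1 := R_inj (he 0 hn) (by rw [h0']; exact R_one)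
  have hT : ∀ i < n, ∀ j < m, T i j < n ∧ mulC (E i) (G j) = E (T i j) ∧ T (T i j) j = i := by
    intro i hi j hj
    have h4 := allB_spec (allB_spec h1 i hi) j hj
    simp only [Bool.and_eq_true, Nat.blt_eq] at h4
    exact ⟨h4.1, Nat.eq_of_beq_eq_true h4.2.1, Nat.eq_of_beq_eq_true h4.2.2⟩
  refine ⟨e, he, hn, e0, fun i hi j hj => (hT i hi j hj).1, fun i hi j hj => ?_, fun j hj i hi i' hi' hii => ?_,
    fun i hi h0 => ?_, fun i hi h0 hcon => ?_⟩
  · have h3 := R_mul (he i hi) (hgen j hj)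
    rw [(hT i hi j hj).2.1] at h3
    exact R_inj h3 (he _ (hT i hi j hj).1)
  · rw [← (hT i hi j hj).2.2, ← (hT i' hi' j hj).2.2, hii]
  · cases i with
    | zero => exact absurd rfl h0
    | succ i =>
      have h3 := allB_spec h2 i (by omega)
      simp only [Bool.and_eq_true, Nat.blt_eq, Nat.ble_eq] at h3
      exact ⟨pi i, by omega, pj i, h3.2.1, Nat.eq_of_beq_eq_true h3.2.2.1⟩
  · cases i with
    | zero => exact absurd rfl h0
    | succ i =>
      have h3 := allB_spec h2 i (by omega)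
      simp only [Bool.and_eq_true, Nat.blt_eq, Nat.ble_eq, Bool.not_eq_true'] at h3
      have h4 := he _ hi
      rw [hcon] at h4
      have h5 := R_uni h4 R_one (hlt _ hi) (by norm_num [oneC])
      rw [h5] at h3
      have h6 := h3.2.2.2
      rw [show Nat.beq oneC oneC = true from Nat.beq_refl oneC] at h6
      exact Bool.noConfusion h6

/-! ### subgroups of the big subgroup -/

/-- `idx` the indices of the elements in the big table, `gq` those of the generators, `v` the inverses of the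
generators -/
def chkX (N n m : ℕ) (E : ℕ → ℕ) (idx gq v : ℕ → ℕ) (T : ℕ → ℕ → ℕ) (pi pj : ℕ → ℕ) : Bool :=
  Nat.beq (idx 0) 0 &&
  (allB (fun j => Nat.blt (gq j) N && Nat.blt (v j) m) m &&
  (allB (fun i => allB (fun j => Nat.blt (T i j) n && (Nat.beq (mulC (E (idx i)) (E (gq j))) (E (idx (T i j))) &&
    Nat.beq (T (T i j) (v j)) i)) m) n &&
  (allB (fun i => Nat.blt (idx i) N) n &&
  allB (fun i => Nat.ble (pi i) i && (Nat.blt (pj i) m && (Nat.beq (T (pi i) (pj i)) (i + 1) &&
    !(Nat.beq (idx (i + 1)) 0)))) (n - 1))))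

theorem tabX {N M n m : ℕ} {E : ℕ → ℕ} {e s : ℕ → S} {T₀ : ℕ → ℕ → ℕ} (he : ∀ i < N, R (e i) (E i))
    (h0 : Table N M e s T₀) (hn : 0 < n) {idx gq v : ℕ → ℕ} {T : ℕ → ℕ → ℕ} {pi pj : ℕ → ℕ}
    (h : chkX N n m E idx gq v T pi pj = true) :
    (∀ i < n, idx i < N) ∧ (∀ j < m, gq j < N) ∧ Table n m (fun i => e (idx i)) (fun j => e (gq j)) T := by
  rw [chkX, Bool.and_eq_true, Bool.and_eq_true, Bool.and_eq_true, Bool.and_eq_true] at h
  obtain ⟨h1, h2, h3, h4, h5⟩ := h
  have h1' := Nat.eq_of_beq_eq_true h1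
  have hg : ∀ j < m, gq j < N ∧ v j < m := by
    intro j hj
    have := allB_spec h2 j hj
    simpa only [Bool.and_eq_true, Nat.blt_eq] using this
  have hT : ∀ i < n, ∀ j < m, T i j < n ∧ mulC (E (idx i)) (E (gq j)) = E (idx (T i j)) ∧ T (T i j) (v j) = i := by
    intro i hi j hj
    have h4 := allB_spec (allB_spec h3 i hi) j hj
    simp only [Bool.and_eq_true, Nat.blt_eq] at h4
    exact ⟨h4.1, Nat.eq_of_beq_eq_true h4.2.1, Nat.eq_of_beq_eq_true h4.2.2⟩
  have hidx : ∀ i < n, idx i < N := by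
    intro i hi
    have := allB_spec h4 i hi
    simpa only [Nat.blt_eq] using this
  refine ⟨hidx, fun j hj => (hg j hj).1, hn, by rw [h1']; exact h0.one, fun i hi j hj => (hT i hi j hj).1,
    fun i hi j hj => ?_, fun j hj i hi i' hi' hii => ?_, fun i hi h0 => ?_, fun i hi hi0 hcon => ?_⟩
  · have h6 := R_mul (he _ (hidx i hi)) (he _ (hg j hj).1)
    rw [(hT i hi j hj).2.1] at h6
    exact R_inj h6 (he _ (hidx _ (hT i hi j hj).1))
  · rw [← (hT i hi j hj).2.2, ← (hT i' hi' j hj).2.2, hii]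
  · cases i with
    | zero => exact absurd rfl h0
    | succ i =>
      have h3 := allB_spec h5 i (by omega)
      simp only [Bool.and_eq_true, Nat.blt_eq, Nat.ble_eq] at h3
      exact ⟨pi i, by omega, pj i, h3.2.1, Nat.eq_of_beq_eq_true h3.2.2.1⟩
  · cases i with
    | zero => exact absurd rfl hi0
    | succ i =>
      have h3 := allB_spec h5 i (by omega)
      simp only [Bool.and_eq_true, Nat.blt_eq, Nat.ble_eq, Bool.not_eq_true'] at h3
      refine h0.ne _ (hidx _ hi) (fun h6 => ?_) hcon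
      have h7 := h3.2.2.2
      rw [h6] at h7
      exact Bool.noConfusion h7

/-! ### the classes -/

/-- every element is a root or conjugate under some `B k` to an element of smaller depth -/
def chkF (n nB r : ℕ) (E B : ℕ → ℕ) (rt rp fp fb fd : ℕ → ℕ) : Bool :=
  allB (fun i => Nat.blt (rt i) r && (Nat.beq i (rp (rt i)) ||
    (Nat.blt (fp i) n && (Nat.blt (fb i) nB && (Nat.blt (fd (fp i)) (fd i) && (Nat.beq (rt (fp i)) (rt i) &&
      Nat.beq (mulC (E (fp i)) (B (fb i))) (mulC (B (fb i)) (E i)))))))) n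

theorem val_root {n nB r : ℕ} {E B : ℕ → ℕ} {rt rp fp fb fd : ℕ → ℕ} {e b : ℕ → S}
    (he : ∀ i < n, R (e i) (E i)) (hb : ∀ k < nB, R (b k) (B k)) (h : chkF n nB r E B rt rp fp fb fd = true)
    {A : Type*} {φ : S → A} (hφ : ∀ g h : S, φ (h⁻¹ * g * h) = φ g) :
    ∀ i < n, rt i < r ∧ φ (e i) = φ (e (rp (rt i))) := by
  have key : ∀ d i, fd i < d → i < n → rt i < r ∧ φ (e i) = φ (e (rp (rt i))) := by
    intro d
    induction d with
    | zero => intro i hi; exact absurd hi (Nat.not_lt_zero _)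
    | succ d ih =>
      intro i hd hi
      have h1 := allB_spec h i hi
      rw [Bool.and_eq_true, Nat.blt_eq, Bool.or_eq_true] at h1
      refine ⟨h1.1, ?_⟩
      rcases h1.2 with h2 | h2
      · rw [← Nat.eq_of_beq_eq_true h2]
      · simp only [Bool.and_eq_true, Nat.blt_eq] at h2
        obtain ⟨h3, h4, h5, h6, h7⟩ := h2
        have h8 := ih (fp i) (by omega) h3
        have h9 := R_conj (he _ h3) (hb _ h4) h7
        rw [R_inj (he i hi) h9, hφ, h8.2, Nat.eq_of_beq_eq_true h6]
  intro i hi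
  exact key (fd i + 1) i (Nat.lt_succ_self _) hi

/-! ### sums -/

theorem dim_table {M : Ideal AlgInt} {V : ValuationSubring ℂ} (hM : IsPModular 3 M) (hV : Above M V)
    [CharP (ResidueField V) 3] {Q : Type} [Group Q] (F : Q →* ↥(chevE8.group (ZMod 3))) {n m : ℕ} {e s : ℕ → Q}
    {t : ℕ → ℕ → ℕ} (h : Table n m e s t) (hn : n.Coprime 3) :
    ∑ i ∈ Finset.range n, bc 3 (adj V F) (e i) =
      (n : ℂ) * (finrank (ZMod 3) ↥(fixL F ((List.range n).map e)) : ℂ) := by
  have h1 := Cfsg.Agent.H451.L7.dim M V hM hV Q F ((List.range n).map e)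
    ((List.nodup_map_iff_inj_on List.nodup_range).2 fun a ha b hb hab =>
      h.injOn b (List.mem_range.1 hb) a (List.mem_range.1 ha) hab)
    (List.mem_map.2 ⟨0, List.mem_range.2 h.pos, h.one⟩)
    (by
      intro a ha b hb
      obtain ⟨i, hi, rfl⟩ := List.mem_map.1 ha
      obtain ⟨j, hj, rfl⟩ := List.mem_map.1 hb
      obtain ⟨k, hk, hk'⟩ := h.mul_mem j (List.mem_range.1 hj) i (List.mem_range.1 hi)
      exact List.mem_map.2 ⟨k, List.mem_range.2 hk, hk'.symm⟩)
    (by simpa using hn)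
  rw [List.map_map, List.length_map, List.length_range] at h1
  rw [← h1, Finset.sum_range]
  rw [← List.sum_ofFn]
  congr 1
  rw [List.ofFn_eq_map, ← List.map_coe_finRange_eq_range, List.map_map]
  rfl

end Cfsg.Agent.H945.E83.Tab
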